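import Mathlib
import Cfsg.Agent.H19.Gt0

/-! The normalizer of a torus in a quotient of `Gam F` by scalars. -/

set_option autoImplicit false

namespace Cfsg.Agent.H9.GtN

open Cfsg.Agent.H19.Oc Cfsg.Agent.H19.Gt Matrix QuadraticAlgebra

/-- the algebra `F[i]` -/
abbrev AA (F : Type*) [Field F] := QuadraticAlgebra F (-1) 0

variable {F : Type*} [Field F]

/-- the regular representation -/
def mm : AA F →* Matrix (Fin 2) (Fin 2) F where
  toFun x := !![x.re, -x.im; x.im, x.re]
  map_one' := by simp [one_fin_two]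
  map_mul' x y := by
    ext i j; fin_cases i <;> fin_cases j <;> simp [mul_apply, Fin.sum_univ_two] <;> ring

/-- the regular representation on units -/
def mu : (AA F)ˣ →* GL (Fin 2) F := Units.map mm

/-- conjugation on units -/
def st : (AA F)ˣ →* (AA F)ˣ := Units.map (starRingEnd (AA F) : AA F →* AA F)

theorem st_val (x : (AA F)ˣ) : (st x : AA F) = star (x : AA F) := rfl

theorem st_st (x : (AA F)ˣ) : st (st x) = x := Units.ext (star_star _)

theorem mu_val (x : (AA F)ˣ) : (mu x : Matrix (Fin 2) (Fin 2) F) =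
    !![(x : AA F).re, -(x : AA F).im; (x : AA F).im, (x : AA F).re] := rfl

theorem nm_iff {x y : (AA F)ˣ} : x * st x = y * st y ↔
    (mu x : Matrix (Fin 2) (Fin 2) F).det = (mu y : Matrix (Fin 2) (Fin 2) F).det := by
  rw [Units.ext_iff, Units.val_mul, Units.val_mul, st_val, st_val, ← algebraMap_norm_eq_mul_star,
    ← algebraMap_norm_eq_mul_star, (FaithfulSMul.algebraMap_injective F (AA F)).eq_iff, mu_val,
    mu_val, det_fin_two_of, det_fin_two_of, QuadraticAlgebra.norm_def, QuadraticAlgebra.norm_def]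
  constructor <;> intro h <;> linear_combination h

/-- the norm -/
def nm : (AA F)ˣ →* (AA F)ˣ := MonoidHom.id _ * st

/-- pairs of equal norm -/
def T2 (F : Type*) [Field F] : Subgroup ((AA F)ˣ × (AA F)ˣ) :=
  MonoidHom.eqLocus (nm.comp (MonoidHom.fst _ _)) (nm.comp (MonoidHom.snd _ _))

theorem mem_T2 {t : (AA F)ˣ × (AA F)ˣ} : t ∈ T2 F ↔ t.1 * st t.1 = t.2 * st t.2 := Iff.rfl

/-- the norm one group -/
def KK (F : Type*) [Field F] : Subgroup (AA F)ˣ := (nm (F := F)).ker

theorem mem_KK {k : (AA F)ˣ} : k ∈ KK F ↔ k * st k = 1 := Iff.rfl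

/-- the torus inside `Gam F` -/
def io : T2 F →* Gam F :=
  ((mu.prodMap mu).comp (T2 F).subtype).codRestrict (Gam F) fun t => mem_Gam.2 (nm_iff.1 t.2)

/-- the coordinates on the torus -/
def ro : T2 F →* KK F × KK F := MonoidHom.mk'
  (fun t => (⟨t.1.1 / t.1.2, by
      rw [mem_KK, map_div, div_mul_div_comm, mem_T2.1 t.2, div_self']⟩,
    ⟨t.1.1 / st t.1.2, by
      rw [mem_KK, map_div, div_mul_div_comm, mem_T2.1 t.2, st_st, mul_comm, div_self']⟩))
  fun s t => Prod.ext (Subtype.ext (mul_div_mul_comm _ _ _ _))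
    (Subtype.ext (by
      show s.1.1 * t.1.1 / st (s.1.2 * t.1.2) = s.1.1 / st s.1.2 * (t.1.1 / st t.1.2)
      rw [map_mul, mul_div_mul_comm]))

/-- the unit `i` -/
def iu : (AA F)ˣ := ⟨⟨0, 1⟩, ⟨0, -1⟩, by ext <;> simp, by ext <;> simp⟩

theorem mu_iu : mu (iu (F := F)) = jj F := Units.ext (by simp [mu_val, iu, jj])

theorem hilbert (h0 : (2 : F) ≠ 0) (k : (AA F)ˣ) (hk : k ∈ KK F) : ∃ y : (AA F)ˣ, y / st y = k := by
  have h1 : (k : AA F) * star (k : AA F) = 1 := congrArg Units.val (mem_KK.1 hk)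
  by_cases h : IsUnit (1 + (k : AA F))
  · refine ⟨h.unit, ?_⟩
    rw [div_eq_iff_eq_mul]
    refine Units.ext ?_
    rw [Units.val_mul, st_val, h.unit_spec, star_add, star_one, mul_add, h1, mul_one, add_comm]
  · rw [isUnit_iff_norm_isUnit, isUnit_iff_ne_zero, not_not, QuadraticAlgebra.norm_def] at h
    have h2 := congrArg QuadraticAlgebra.re h1
    simp at h h2
    refine ⟨iu, ?_⟩
    rw [div_eq_iff_eq_mul]
    refine Units.ext ?_
    rw [Units.val_mul, st_val]
    have h3 : (k : AA F).re = -1 := by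
      apply mul_left_cancel₀ h0
      linear_combination h - h2
    have h4 : (k : AA F).im = 0 := by
      rw [h3] at h2
      exact mul_self_eq_zero.1 (by linear_combination h2)
    ext <;> simp [iu, h3, h4]

theorem ro_surj (h0 : (2 : F) ≠ 0) : Function.Surjective (ro (F := F)) := by
  rintro ⟨a, b⟩
  obtain ⟨y, hy⟩ := hilbert h0 (b.1 / a.1) (div_mem b.2 a.2)
  refine ⟨⟨(a.1 * y, y), ?_⟩, Prod.ext (Subtype.ext (mul_div_cancel_right _ _)) (Subtype.ext ?_)⟩
  · show a.1 * y * st (a.1 * y) = y * st y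
    rw [map_mul, mul_mul_mul_comm, mem_KK.1 a.2, one_mul]
  · show a.1 * y / st y = b.1
    rw [mul_div_assoc, hy, mul_div_cancel]

theorem ro_eq_one (h0 : (2 : F) ≠ 0) {t : T2 F} : ro t = 1 ↔ ∃ l : F,
    ((io t).1.1 : Matrix (Fin 2) (Fin 2) F) = l • 1 ∧
      ((io t).1.2 : Matrix (Fin 2) (Fin 2) F) = l • 1 := by
  have key : ∀ (x : (AA F)ˣ) (l : F), (mu x : Matrix (Fin 2) (Fin 2) F) = l • 1 ↔
      (x : AA F) = ⟨l, 0⟩ := fun x l => by
    rw [mu_val]
    constructor
    · intro h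
      have h1 := congrFun (congrFun h 0) 0
      have h2 := congrFun (congrFun h 1) 0
      simp at h1 h2
      exact QuadraticAlgebra.ext h1 h2
    · intro h
      rw [h]
      ext i j; fin_cases i <;> fin_cases j <;> simp
  show _ ↔ ∃ l : F, (mu t.1.1 : Matrix (Fin 2) (Fin 2) F) = l • 1 ∧
    (mu t.1.2 : Matrix (Fin 2) (Fin 2) F) = l • 1
  simp only [key]
  constructor
  · intro h
    have h1 : t.1.1 = t.1.2 := div_eq_one.1 (congrArg (fun z => z.1.1) h)
    have h2 : t.1.1 = st t.1.2 := div_eq_one.1 (congrArg (fun z => z.2.1) h)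
    have h3 := congrArg (fun z : (AA F)ˣ => (z : AA F).im) (h1.symm.trans h2)
    simp only [st_val, im_star] at h3
    have h4 : (t.1.2 : AA F).im = 0 := by
      apply mul_left_cancel₀ h0
      linear_combination h3
    exact ⟨(t.1.2 : AA F).re, by rw [h1]; exact QuadraticAlgebra.ext rfl h4,
      QuadraticAlgebra.ext rfl h4⟩
  · rintro ⟨l, h1, h2⟩
    refine Prod.ext (Subtype.ext (div_eq_one.2 (Units.ext (h1.trans h2.symm))))
      (Subtype.ext (div_eq_one.2 (Units.ext ?_)))
    rw [st_val, h1, h2]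
    ext <;> simp

theorem exists_mu {g : GL (Fin 2) F} (h : g * jj F = jj F * g) : ∃ x, mu x = g := by
  obtain ⟨a, b, h⟩ := isT_iff.1 h
  have h1 := g.det_ne_zero
  rw [h, det_fin_two_of] at h1
  have h2 : IsUnit (⟨a, b⟩ : AA F) := by
    rw [isUnit_iff_norm_isUnit, isUnit_iff_ne_zero, QuadraticAlgebra.norm_def]
    intro e
    exact h1 (by linear_combination e)
  exact ⟨h2.unit, Units.ext (by rw [mu_val, h, h2.unit_spec])⟩

theorem exists_io (x : Gam F) (h1 : x.1.1 * jj F = jj F * x.1.1)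
    (h2 : x.1.2 * jj F = jj F * x.1.2) : ∃ t, io t = x := by
  obtain ⟨a, ha⟩ := exists_mu h1
  obtain ⟨b, hb⟩ := exists_mu h2
  exact ⟨⟨(a, b), (nm_iff (x := a) (y := b)).2 (by rw [ha, hb]; exact mem_Gam.1 x.2)⟩, Subtype.ext (Prod.ext ha hb)⟩

theorem iu_mem : iu ∈ KK F := Units.ext (by
  rw [show ((nm iu : (AA F)ˣ) : AA F) = (iu : (AA F)ˣ) * star ((iu : (AA F)ˣ) : AA F) from rfl]
  ext <;> simp [iu])

instance [Finite F] : Finite (AA F) := Finite.of_equiv _ (QuadraticAlgebra.equivProd (-1 : F) 0).symm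

theorem four_dvd_KK [Finite F] (h0 : (2 : F) ≠ 0) : 4 ∣ Nat.card (KK F) := by
  have h : orderOf (iu (F := F)) = 2 ^ (1 + 1) := by
    refine orderOf_eq_prime_pow (fun e => h0 ?_) (Units.ext ?_)
    · have := congrArg (fun z : (AA F)ˣ => (z : AA F).re) e
      simp [iu, pow_two] at this
      linear_combination -this
    · ext <;> simp [iu, pow_succ]
  have h' := Subgroup.orderOf_dvd_natCard _ (iu_mem (F := F))
  rwa [h] at h'

theorem cyc_KK [Finite F] (h0 : (2 : F) ≠ 0) : IsCyclic (KK F) := by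
  obtain ⟨i, hi⟩ := IsAlgClosed.exists_eq_mul_self (-1 : AlgebraicClosure F)
  let φ : AA F →ₐ[F] AlgebraicClosure F := QuadraticAlgebra.lift ⟨i, by simp [← hi]⟩
  have hφ : ∀ z : AA F, φ z = algebraMap F _ z.re + algebraMap F _ z.im * i := fun z => by
    simp [φ, QuadraticAlgebra.lift, Algebra.smul_def]
  have hi0 : i ≠ 0 := by rintro rfl; simp at hi
  refine isCyclic_of_injective_ringHom
    (((φ : AA F →* AlgebraicClosure F).comp (Units.coeHom _)).comp (KK F).subtype) ?_
  refine (injective_iff_map_eq_one _).2 fun k hk => Subtype.ext (Units.ext ?_)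
  have h1 : φ (k.1 : AA F) = 1 := hk
  have h2 : φ (star (k.1 : AA F)) = 1 := by
    have := congrArg φ (show (k.1 : AA F) * star (k.1 : AA F) = 1 from
      congrArg Units.val (mem_KK.1 k.2))
    rwa [map_mul, h1, one_mul, map_one] at this
  rw [hφ] at h1 h2
  simp only [re_star, im_star, zero_mul, add_zero, map_neg] at h2
  have h3 : (2 : AlgebraicClosure F) ≠ 0 := by
    rw [← map_ofNat (algebraMap F (AlgebraicClosure F)) 2]
    exact (map_ne_zero _).2 h0
  have h4 : algebraMap F (AlgebraicClosure F) (k.1 : AA F).re = 1 := by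
    apply mul_left_cancel₀ h3
    linear_combination h1 + h2
  have h5 : algebraMap F (AlgebraicClosure F) (k.1 : AA F).im = 0 := by
    apply mul_right_cancel₀ hi0
    linear_combination h1 - h4
  exact QuadraticAlgebra.ext ((map_eq_one_iff _ (algebraMap F _).injective).1 h4)
    ((map_eq_zero _).1 h5)

theorem gs_comp {G K K' : Type*} [Group G] [CommGroup K] [CommGroup K'] {H : Subgroup G}
    {τ : K × K →* G} {u v : G} (h : Gs H τ u v) (e : K' ≃* K) :
    Gs H (τ.comp (e.toMonoidHom.prodMap e.toMonoidHom)) u v where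
  cyc := by haveI := h.cyc; exact isCyclic_of_surjective e.symm e.symm.surjective
  four := Nat.card_congr e.toEquiv ▸ h.four
  inj := h.inj.comp (e.injective.prodMap e.injective)
  uu := h.uu
  vv := h.vv
  uv := h.uv
  ut a b := by simpa using h.ut (e a) (e b)
  vt a b := h.vt (e a) (e b)
  mem g := (h.mem g).trans ⟨fun ⟨a, b, hh⟩ => ⟨e.symm a, e.symm b, by simpa using hh⟩,
    fun ⟨a, b, hh⟩ => ⟨e a, e b, hh⟩⟩

theorem QQ {g h : GL (Fin 2) F} (hg : g * jj F = -(jj F * g)) (hh : h * jj F = -(jj F * h)) :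
    g * h⁻¹ * jj F = jj F * (g * h⁻¹) := by
  have : h⁻¹ * jj F = -(jj F * h⁻¹) := by
    rw [inv_mul_eq_iff_eq_mul, mul_neg, ← mul_assoc, hh, neg_mul, neg_neg, mul_inv_cancel_right]
  rw [mul_assoc, this, mul_neg, ← mul_assoc, hg, neg_mul, neg_neg, mul_assoc]

theorem PP {g h : GL (Fin 2) F} (hg : g * jj F = jj F * g) (hh : h * jj F = jj F * h) :
    g * h⁻¹ * jj F = jj F * (g * h⁻¹) :=
  (Commute.mul_left hg (Commute.inv_left hh)).eq

theorem gN {F : Type*} [Field F] [Fintype F] (hF : Odd (Fintype.card F)) {R : Type*} [Group R] [Finite R] (Φ : Gam F →* R) (ho : ¬ 2 ∣ Φ.range.index) (hk : ∀ x : Gam F, Φ x = 1 ↔ ∃ l : F, (x.1.1 : Matrix (Fin 2) (Fin 2) F) = l • 1 ∧ (x.1.2 : Matrix (Fin 2) (Fin 2) F) = l • 1) : ∃ (n : ℕ) (H : Subgroup R) (τ : Multiplicative (ZMod n) × Multiplicative (ZMod n) →* R) (u v : R), n ≠ 0 ∧ Gs H τ u v ∧ ¬ 2 ∣ H.index := by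
  have h2 : ringChar F ≠ 2 := fun h => by
    have := FiniteField.even_card_iff_char_two.1 h
    obtain ⟨k, hk⟩ := hF; omega
  have h0 : (2 : F) ≠ 0 := Ring.two_ne_zero h2
  obtain ⟨a, b, hab⟩ := FiniteField.exists_root_sum_quadratic (R := F)
    (f := Polynomial.X ^ 2 - Polynomial.C (-1)) (g := Polynomial.X ^ 2)
    (Polynomial.degree_X_pow_sub_C (by simp) _) (Polynomial.degree_X_pow 2) (Nat.odd_iff.1 hF)
  have hab' : a * a + b * b = -1 := by simp at hab; linear_combination hab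
  have hdet : (!![a, b; b, -a] : Matrix (Fin 2) (Fin 2) F).det = 1 := by
    rw [det_fin_two_of]; linear_combination -hab'
  obtain ⟨p, hp⟩ : ∃ p : GL (Fin 2) F, (p : Matrix (Fin 2) (Fin 2) F) = !![a, b; b, -a] :=
    ⟨GeneralLinearGroup.mkOfDetNeZero _ (hdet ▸ one_ne_zero), rfl⟩
  have hpj : p * jj F = -(jj F * p) := isU_iff.2 ⟨a, b, hp⟩
  have hpp : p * p = -1 := Units.ext (by
    rw [Units.val_mul, hp]
    ext i j; fin_cases i <;> fin_cases j <;> simp [mul_apply, Fin.sum_univ_two] <;>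
      first | linear_combination hab' | ring)
  have hjj : jj F * jj F = -1 := Units.ext (by
    ext i j; fin_cases i <;> fin_cases j <;> simp [jj, mul_apply, Fin.sum_univ_two])
  have hpm : ∀ x, p * mu x = mu (st x) * p := fun x => Units.ext (by
    rw [Units.val_mul, Units.val_mul, hp, mu_val, mu_val, st_val]
    ext i j; fin_cases i <;> fin_cases j <;> simp [mul_apply, Fin.sum_univ_two] <;> ring)
  have hjm : ∀ x, jj F * mu x = mu x * jj F := fun x => by
    rw [← mu_iu, ← map_mul, ← map_mul, mul_comm]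
  have hjd : (jj F : Matrix (Fin 2) (Fin 2) F).det = 1 := by simp [jj]
  let U : Gam F := ⟨(p, jj F * p), mem_Gam.2 (by
    simp only [Units.val_mul, det_mul, hjd, one_mul])⟩
  let V : Gam F := ⟨(jj F, p), mem_Gam.2 (by simp only [hjd, hp, hdet])⟩
  let N : Gam F := ⟨(-1, -1), mem_Gam.2 rfl⟩
  have hN : Φ N = 1 := (hk N).2 ⟨-1, by simp [N], by simp [N]⟩
  have hjp : jj F * p * jj F = -(jj F * (jj F * p)) := by rw [mul_assoc, hpj, mul_neg]
  have hUU : U * U = N := Subtype.ext (Prod.ext hpp (by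
    show jj F * p * (jj F * p) = -1
    rw [← mul_assoc, hjp, ← mul_assoc, hjj, neg_mul, mul_assoc, hpp]; simp))
  have hVV : V * V = N := Subtype.ext (Prod.ext hjj hpp)
  have hUV : U * V = N * (V * U) := Subtype.ext (Prod.ext (by
      show p * jj F = -1 * (jj F * p)
      rw [hpj, neg_one_mul]) (by
      show jj F * p * p = -1 * (p * (jj F * p))
      rw [← mul_assoc p, hpj, neg_one_mul, neg_mul, neg_neg]))
  have hker : (ro (F := F)).ker ≤ (Φ.comp io).ker := fun t ht => (hk _).2 ((ro_eq_one h0).1 ht)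
  let τ : KK F × KK F →* R := ro.liftOfSurjective (ro_surj h0) ⟨Φ.comp io, hker⟩
  have hτ : ∀ t, τ (ro t) = Φ (io t) := fun t => MonoidHom.liftOfRightInverse_comp_apply _ _ _ _ t
  let M := ((nN F).prod (nN F)).subgroupOf (Gam F)
  have hUM : U ∈ M := ⟨Or.inr hpj, Or.inr hjp⟩
  have hVM : V ∈ M := ⟨Or.inl rfl, Or.inr hpj⟩
  have hio : ∀ t, io t ∈ M := fun t => ⟨Or.inl (hjm _).symm, Or.inl (hjm _).symm⟩
  have hG : Gs (M.map Φ) τ (Φ U) (Φ V) :=
    { cyc := cyc_KK h0
      four := four_dvd_KK h0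
      inj := (injective_iff_map_eq_one _).2 fun z hz => by
        obtain ⟨t, rfl⟩ := ro_surj h0 z
        exact (ro_eq_one h0).2 ((hk _).1 ((hτ t).symm.trans hz))
      uu := by rw [← map_mul, hUU, hN]
      vv := by rw [← map_mul, hVV, hN]
      uv := by rw [← map_mul, hUV, map_mul, hN, one_mul, map_mul]
      ut := fun x y => by
        obtain ⟨t, ht⟩ := ro_surj h0 (x, y)
        let t' : T2 F := ⟨(st t.1.1, st t.1.2), by
          rw [mem_T2, st_st, st_st, mul_comm, mem_T2.1 t.2, mul_comm]⟩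
        have e : ro t' = (x⁻¹, y⁻¹) := by
          rw [← Prod.inv_mk, ← ht, eq_inv_iff_mul_eq_one]
          refine Prod.ext (Subtype.ext ?_) (Subtype.ext ?_)
          · show st t.1.1 / st t.1.2 * (t.1.1 / t.1.2) = 1
            rw [div_mul_div_comm, mul_comm, mem_T2.1 t.2, mul_comm, div_self']
          · show st t.1.1 / st (st t.1.2) * (t.1.1 / st t.1.2) = 1
            rw [div_mul_div_comm, mul_comm, mem_T2.1 t.2, st_st, div_self']
        rw [← ht, ← e, hτ, hτ, ← map_mul, ← map_mul]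
        congr 1
        refine Subtype.ext (Prod.ext (hpm _) ?_)
        show jj F * p * mu t.1.2 = mu (st t.1.2) * (jj F * p)
        rw [mul_assoc, hpm, ← mul_assoc, hjm, mul_assoc]
      vt := fun x y => by
        obtain ⟨t, ht⟩ := ro_surj h0 (x, y)
        let t' : T2 F := ⟨(t.1.1, st t.1.2), by
          rw [mem_T2, st_st, mem_T2.1 t.2, mul_comm]⟩
        have e : ro t' = (y, x) := by
          refine Prod.ext (congrArg Prod.snd ht) ?_
          rw [← show (ro t).1 = x from congrArg Prod.fst ht]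
          refine Subtype.ext ?_
          show t.1.1 / st (st t.1.2) = t.1.1 / t.1.2
          rw [st_st]
        rw [← ht, ← e, hτ, hτ, ← map_mul, ← map_mul]
        congr 1
        exact Subtype.ext (Prod.ext (hjm _) (hpm _))
      mem := fun g => by
        constructor
        · rintro ⟨x, ⟨h1, h2⟩, rfl⟩
          have fin : ∀ W : Gam F, (∃ t, io t = x * W⁻¹) → ∃ a b, Φ x = τ (a, b) * Φ W := by
            rintro W ⟨t, ht⟩
            exact ⟨(ro t).1, (ro t).2, by rw [Prod.mk.eta, hτ, ht, ← map_mul, inv_mul_cancel_right]⟩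
          rcases h1 with h1 | h1 <;> rcases h2 with h2 | h2
          · obtain ⟨t, ht⟩ := exists_io x h1 h2
            exact ⟨(ro t).1, (ro t).2, Or.inl (by rw [Prod.mk.eta, hτ, ht])⟩
          · obtain ⟨a, b, h⟩ := fin V (exists_io _ (PP h1 rfl) (QQ h2 hpj))
            exact ⟨a, b, Or.inr (Or.inr (Or.inl h))⟩
          · obtain ⟨a, b, h⟩ := fin (U * V) (exists_io _ (QQ h1 (by
              show p * jj F * jj F = -(jj F * (p * jj F))
              rw [← mul_assoc, hpj, neg_mul])) (PP h2 (by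
              show jj F * p * p * jj F = jj F * (jj F * p * p)
              rw [mul_assoc (jj F) p, hpp]; simp)))
            exact ⟨a, b, Or.inr (Or.inr (Or.inr (by rw [h, map_mul])))⟩
          · obtain ⟨a, b, h⟩ := fin U (exists_io _ (QQ h1 hpj) (QQ h2 hjp))
            exact ⟨a, b, Or.inr (Or.inl h)⟩
        · rintro ⟨x, y, h⟩
          obtain ⟨t, ht⟩ := ro_surj h0 (x, y)
          have m0 : τ (x, y) ∈ M.map Φ := ⟨io t, hio t, by rw [← ht, hτ]⟩
          have m1 : Φ U ∈ M.map Φ := ⟨U, hUM, rfl⟩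
          have m2 : Φ V ∈ M.map Φ := ⟨V, hVM, rfl⟩
          rcases h with rfl | rfl | rfl | rfl
          exacts [m0, mul_mem m0 m1, mul_mem m0 m2, mul_mem m0 (mul_mem m1 m2)] }
  refine ⟨Nat.card (KK F), M.map Φ, _, Φ U, Φ V, Nat.card_pos.ne',
    gs_comp hG (zmodCyclicMulEquiv hG.cyc), fun h => ?_⟩
  rw [Subgroup.index_map] at h
  exact (Nat.prime_two.dvd_mul.1 h).elim
    (fun h => index_M hF (h.trans (Subgroup.index_dvd_of_le le_sup_left))) ho

end Cfsg.Agent.H9.GtN
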