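import Mathlib

namespace Cfsg.Agent.H9.R3

open MulAction

theorem syl_orbit {B X : Type*} [Group B] [Finite B] [MulAction B X] {p n : ℕ} [Fact p.Prime]
    (S : Sylow p B) (x : X) (h : (orbit B x).ncard = p ^ n) :
    orbit (S : Subgroup B) x = orbit B x := by
  classical
  have hp : p.Prime := Fact.out
  have hfin : (orbit B x).Finite := Set.finite_range _
  have hsub : orbit (S : Subgroup B) x ⊆ orbit B x := by
    rintro y ⟨g, rfl⟩
    exact ⟨(g : B), rfl⟩
  refine Set.eq_of_subset_of_ncard_le hsub ?_ hfin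
  have h1 : (stabilizer B x).index = p ^ n := by
    rw [index_stabilizer, h]
  have h2 : (orbit (S : Subgroup B) x).ncard = (stabilizer B x).relIndex (S : Subgroup B) := by
    rw [← index_stabilizer]
    rfl
  -- index of `S ⊓ stab` two ways
  have e1 : (stabilizer B x).relIndex (S : Subgroup B) * (S : Subgroup B).index =
      ((stabilizer B x) ⊓ (S : Subgroup B)).index := by
    rw [← Subgroup.inf_relIndex_right, Subgroup.relIndex_mul_index inf_le_right]
  have e2 : p ^ n ∣ ((stabilizer B x) ⊓ (S : Subgroup B)).index := by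
    rw [← h1]
    exact Subgroup.index_dvd_of_le inf_le_left
  have hcop : Nat.Coprime (p ^ n) (S : Subgroup B).index :=
    Nat.Coprime.pow_left _ ((Nat.Prime.coprime_iff_not_dvd hp).2 S.not_dvd_index)
  rw [← e1] at e2
  have e3 := hcop.dvd_of_dvd_mul_right e2
  rw [h, h2]
  refine Nat.le_of_dvd (Nat.pos_of_ne_zero ?_) e3
  exact Subgroup.FiniteIndex.index_ne_zero

theorem transfer {H X Ω : Type*} [Group H] [MulAction H X] [MulAction H Ω] (x : X) (ω : Ω)
    (h : stabilizer H x = stabilizer H ω) :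
    ∃ f : X → Ω, (∀ g : H, f (g • x) = g • ω) ∧ Set.BijOn f (orbit H x) (orbit H ω) := by
  classical
  have key : ∀ g g' : H, g • x = g' • x ↔ g • ω = g' • ω := by
    intro g g'
    have : g'⁻¹ * g ∈ stabilizer H x ↔ g'⁻¹ * g ∈ stabilizer H ω := by rw [h]
    simp only [mem_stabilizer_iff, mul_smul, inv_smul_eq_iff] at this
    exact this
  let f : X → Ω := fun y => if hy : ∃ g : H, g • x = y then hy.choose • ω else ω
  have hf : ∀ g : H, f (g • x) = g • ω := by
    intro g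
    have hy : ∃ g' : H, g' • x = g • x := ⟨g, rfl⟩
    simp only [f, dif_pos hy]
    exact (key _ _).1 hy.choose_spec
  refine ⟨f, hf, ?_, ?_, ?_⟩
  · rintro y ⟨g, rfl⟩
    exact ⟨g, (hf g).symm⟩
  · rintro y ⟨g, rfl⟩ y' ⟨g', rfl⟩ hh
    simp only [hf] at hh
    exact (key _ _).2 hh
  · rintro y ⟨g, rfl⟩
    exact ⟨g • x, ⟨g, rfl⟩, hf g⟩

theorem glue {H X Ω : Type*} [Group H] [MulAction H X] [MulAction H Ω] (x0 x1 x2 : X) (a b c : Ω)
    (h0 : ∀ g : H, g • x0 = x0) (ha : ∀ g : H, g • a = a)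
    (h1 : stabilizer H x1 = stabilizer H b) (h2 : stabilizer H x2 = stabilizer H c)
    (hX : ∀ x, x = x0 ∨ x ∈ orbit H x1 ∨ x ∈ orbit H x2)
    (hΩ : ∀ y, y = a ∨ y ∈ orbit H b ∨ y ∈ orbit H c)
    (dX : x0 ∉ orbit H x1 ∧ x0 ∉ orbit H x2 ∧ x1 ∉ orbit H x2)
    (dΩ : a ∉ orbit H b ∧ a ∉ orbit H c ∧ b ∉ orbit H c) :
    ∃ β : X ≃ Ω, β x0 = a ∧ β x1 = b ∧ β x2 = c ∧ ∀ (g : H) x, β (g • x) = g • β x := by
  classical
  obtain ⟨f1, hf1, -, i1, -⟩ := transfer x1 b h1
  obtain ⟨f2, hf2, -, i2, -⟩ := transfer x2 c h2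
  have dX' : ∀ g g' : H, g • x1 ≠ g' • x2 := by
    intro g g' hh
    exact dX.2.2 ⟨g⁻¹ * g', by simp only [mul_smul]; rw [← hh, inv_smul_smul]⟩
  have dΩ' : ∀ g g' : H, g • b ≠ g' • c := by
    intro g g' hh
    exact dΩ.2.2 ⟨g⁻¹ * g', by simp only [mul_smul]; rw [← hh, inv_smul_smul]⟩
  let f : X → Ω := fun x => if x = x0 then a else if x ∈ orbit H x1 then f1 x else f2 x
  have f0 : f x0 = a := by simp [f]
  have fa : ∀ g : H, f (g • x1) = g • b := by
    intro g
    have n0 : g • x1 ≠ x0 := fun hh => dX.1 ⟨g, hh⟩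
    have m1 : g • x1 ∈ orbit H x1 := ⟨g, rfl⟩
    simp only [f, if_neg n0, if_pos m1, hf1]
  have fb : ∀ g : H, f (g • x2) = g • c := by
    intro g
    have n0 : g • x2 ≠ x0 := fun hh => dX.2.1 ⟨g, hh⟩
    have m1 : g • x2 ∉ orbit H x1 := by
      rintro ⟨g', hh⟩
      exact dX' g' g hh
    simp only [f, if_neg n0, if_neg m1, hf2]
  have hbij : Function.Bijective f := by
    constructor
    · intro x y hxy
      rcases hX x with rfl | ⟨g, rfl⟩ | ⟨g, rfl⟩ <;> rcases hX y with rfl | ⟨g', rfl⟩ | ⟨g', rfl⟩ <;>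
        simp only [f0, fa, fb] at hxy
      · rfl
      · exact absurd ⟨g', hxy.symm⟩ dΩ.1
      · exact absurd ⟨g', hxy.symm⟩ dΩ.2.1
      · exact absurd ⟨g, hxy⟩ dΩ.1
      · exact i1 ⟨g, rfl⟩ ⟨g', rfl⟩ (by simp only [hf1]; exact hxy)
      · exact absurd hxy (dΩ' _ _)
      · exact absurd ⟨g, hxy⟩ dΩ.2.1
      · exact absurd hxy.symm (dΩ' _ _)
      · exact i2 ⟨g, rfl⟩ ⟨g', rfl⟩ (by simp only [hf2]; exact hxy)
    · intro y
      rcases hΩ y with rfl | ⟨g, rfl⟩ | ⟨g, rfl⟩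
      · exact ⟨x0, f0⟩
      · exact ⟨g • x1, fa g⟩
      · exact ⟨g • x2, fb g⟩
  refine ⟨Equiv.ofBijective f hbij, f0, ?_, ?_, ?_⟩
  · have := fa 1
    simpa using this
  · have := fb 1
    simpa using this
  · intro g x
    show f (g • x) = g • f x
    rcases hX x with rfl | ⟨g', rfl⟩ | ⟨g', rfl⟩
    · rw [h0, f0, ha]
    · simp only [← mul_smul, fa]
    · simp only [← mul_smul, fb]

/-- pointwise stabiliser of `s 0, …, s (j-1)` inside `A`. -/
def ptw {X : Type*} (A : Subgroup (Equiv.Perm X)) (s : ℕ → X) (j : ℕ) : Subgroup (Equiv.Perm X) where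
  carrier := {g | g ∈ A ∧ ∀ i < j, g (s i) = s i}
  mul_mem' := by
    rintro g g' ⟨h1, h2⟩ ⟨h3, h4⟩
    exact ⟨A.mul_mem h1 h3, fun i hi => by rw [Equiv.Perm.mul_apply, h4 i hi, h2 i hi]⟩
  one_mem' := ⟨A.one_mem, fun _ _ => rfl⟩
  inv_mem' := by
    rintro g ⟨h1, h2⟩
    exact ⟨A.inv_mem h1, fun i hi => by rw [Equiv.Perm.inv_eq_iff_eq, h2 i hi]⟩

theorem aut_le {X : Type*} [Finite X] (R : X → X → Prop) (A : Subgroup (Equiv.Perm X))
    (hA : ∀ g ∈ A, ∀ x y, R (g x) (g y) ↔ R x y) (s : ℕ → X) (k : ℕ → ℕ) (m : ℕ)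
    (hs : ∀ j < m, ∀ i < j, s j ≠ s i)
    (hk : ∀ j < m, {x | ∀ i < j, x ≠ s i ∧ (R (s i) x ↔ R (s i) (s j))}.ncard ≤ k j)
    (hx : ∀ x y, (∀ i < m, x ≠ s i ∧ y ≠ s i ∧ (R (s i) x ↔ R (s i) y)) → x = y) :
    Nat.card A ≤ ∏ j ∈ Finset.range m, k j := by
  classical
  have step : ∀ j < m, Nat.card (ptw A s j) ≤ k j * Nat.card (ptw A s (j + 1)) := by
    intro j hj
    have e1 := (stabilizer (ptw A s j) (s j)).index_mul_card
    rw [index_stabilizer] at e1
    have e2 : (orbit (ptw A s j) (s j)).ncard ≤ k j := by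
      refine le_trans (Set.ncard_le_ncard ?_ (Set.toFinite _)) (hk j hj)
      rintro y ⟨⟨g, hg1, hg2⟩, rfl⟩ i hi
      show g (s j) ≠ s i ∧ (R (s i) (g (s j)) ↔ R (s i) (s j))
      refine ⟨fun hh => hs j hj i hi (g.injective (hh.trans (hg2 i hi).symm)), ?_⟩
      have := hA g hg1 (s i) (s j)
      rwa [hg2 i hi] at this
    have e3 : Nat.card (stabilizer (ptw A s j) (s j)) ≤ Nat.card (ptw A s (j + 1)) := by
      refine Nat.card_le_card_of_injective
        (fun g => (⟨g.1.1, g.1.2.1, fun i hi => ?_⟩ : ptw A s (j + 1))) ?_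
      · rcases Nat.lt_succ_iff_lt_or_eq.1 hi with h | rfl
        · exact g.1.2.2 i h
        · exact g.2
      · intro g g' hh
        have h' := congrArg Subtype.val hh
        exact Subtype.ext (Subtype.ext h')
    rw [← e1]
    exact Nat.mul_le_mul e2 e3
  have last : Nat.card (ptw A s m) ≤ 1 := by
    rw [Finite.card_le_one_iff_subsingleton]
    refine ⟨fun g g' => Subtype.ext ?_⟩
    have one : ∀ g : ptw A s m, g.1 = 1 := by
      rintro ⟨g, hg1, hg2⟩
      ext x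
      show g x = x
      by_cases hxs : ∃ i < m, x = s i
      · obtain ⟨i, hi, rfl⟩ := hxs
        exact hg2 i hi
      · push Not at hxs
        refine hx _ _ fun i hi => ⟨fun hh => hxs i hi (g.injective (hh.trans (hg2 i hi).symm)),
          hxs i hi, ?_⟩
        have := hA g hg1 (s i) x
        rwa [hg2 i hi] at this
    rw [one g, one g']
  have ind : ∀ j ≤ m, Nat.card A ≤ (∏ i ∈ Finset.range j, k i) * Nat.card (ptw A s j) := by
    intro j
    induction j with
    | zero =>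
      intro _
      rw [Finset.prod_range_zero, one_mul]
      refine Nat.card_le_card_of_injective
        (fun g => (⟨g.1, g.2, fun i hi => absurd hi (Nat.not_lt_zero _)⟩ : ptw A s 0)) ?_
      intro g g' hh
      have h' := congrArg Subtype.val hh
      exact Subtype.ext h'
    | succ j ih =>
      intro hj
      rw [Finset.prod_range_succ, mul_assoc]
      exact (ih (by omega)).trans (Nat.mul_le_mul_left _ (step j (by omega)))
  calc Nat.card A ≤ _ := ind m le_rfl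
    _ ≤ (∏ i ∈ Finset.range m, k i) * 1 := Nat.mul_le_mul_left _ last
    _ = _ := mul_one _

end Cfsg.Agent.H9.R3
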