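import Mathlib
import Cfsg.Agent.H7.Rv0

/-! Soundness of the refinement program for the Rudvalis graph. -/

set_option autoImplicit false
namespace Cfsg.Agent.H7.Rv
open Cfsg.Agent.H14 MulAction
open Cfsg.Agent.H25 (forceL gd)

theorem go_aj {β : Type} (x : ℕ) (k : (ℕ → ℕ) → β) : aj x k = k fun y => ad x y := by
  unfold aj wW ad tr
  rw [H25.forceL_eq]

theorem go_rec {β : Type} (u v : β) (a b : ℕ) :
    (Bool.rec u v (Nat.beq a b) : β) = if a = b then v else u := by
  by_cases h : a = b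
  · rw [if_pos h, Nat.beq_eq.mpr h]
  · rw [if_neg h]
    cases hb : Nat.beq a b
    · rfl
    · exact absurd (Nat.eq_of_beq_eq_true hb) h

/-- the test function of an instruction -/
noncomputable def go_tf (al : ℕ → ℕ) (Ls : List (List ℕ)) (op j x : ℕ) : ℕ :=
  if op = 0 then (if x = j then 2 else ad j x) else if op = 4 then ad x (itr al j x) else
    if op = 5 then (if itr al j x = x then 1 else 0) else if op = 1 then sumL (gd [] Ls j) (fun y => ad x y) else
      sumL (gd [] Ls j) fun s => ad x s * ad (al x) s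

theorem go_tst (al : ℕ → ℕ) (Ls : List (List ℕ)) (op j : ℕ) (k : (ℕ → ℕ) → Bool) :
    tst al Ls op j k = k (go_tf al Ls op j) := by
  unfold tst go_tf
  simp only [go_aj, go_rec]
  split_ifs <;> rfl

theorem go_flt (f : ℕ → ℕ) (v : ℕ) (k : List ℕ → Bool) (l acc : List ℕ) :
    flt f v k l acc = k ((l.filter fun a => decide (f a = v)).reverse ++ acc) := by
  induction l generalizing acc with
  | nil => rfl
  | cons a l ih =>
    have : flt f v k (a :: l) acc =
      (Bool.rec (flt f v k l acc) (flt f v k l (a :: acc)) (Nat.beq (f a) v) : Bool) := rfl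
    rw [this, go_rec, ih, ih]
    by_cases h : f a = v <;> simp [h]

theorem go_mem {x : ℕ} {l : List ℕ} : mem x l = true ↔ x ∈ l := by
  unfold mem
  rw [anyL_iff]
  constructor
  · rintro ⟨a, ha, e⟩
    rwa [Nat.eq_of_beq_eq_true e]
  · exact fun h => ⟨x, h, Nat.beq_refl x⟩

theorem go_sum {N : ℕ} (l : List ℕ) (hn : l.Nodup) (hl : ∀ p ∈ l, p < N) (f : ℕ → ℕ) :
    sumL l f = ∑ s : Fin N, if s.val ∈ l then f s.val else 0 := by
  induction l with
  | nil => simp [sumL]
  | cons a l ih =>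
    have e : sumL (a :: l) f = f a + sumL l f := rfl
    rw [List.nodup_cons] at hn
    have ha : a < N := hl a List.mem_cons_self
    rw [e, ih hn.2 fun p hp => hl p (List.mem_cons_of_mem _ hp)]
    have e2 : f a = ∑ s : Fin N, if s = ⟨a, ha⟩ then f s.val else 0 := by simp
    rw [e2, ← Finset.sum_add_distrib]
    refine Finset.sum_congr rfl fun s _ => ?_
    by_cases hs : s = ⟨a, ha⟩
    · subst hs
      simp [hn.1]
    · have : s.val ≠ a := fun e => hs (Fin.ext e)
      simp [hs, this]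

section
variable {A : Type*} [Group A] {N : ℕ} [MulAction A (Fin N)]

/-- pointwise stabilizer of a list -/
def go_B (A : Type*) [Group A] (N : ℕ) [MulAction A (Fin N)] (Fx : List ℕ) : Subgroup A where
  carrier := {g | ∀ x : Fin N, x.val ∈ Fx → g • x = x}
  one_mem' := fun x _ => one_smul _ x
  mul_mem' := fun {a b} ha hb x hx => by rw [mul_smul, hb x hx, ha x hx]
  inv_mem' := fun {a} ha x hx => by rw [inv_smul_eq_iff, ha x hx]

/-- invariant lists -/
def go_Inv (N : ℕ) [MulAction A (Fin N)] (B : Subgroup A) (l : List ℕ) : Prop :=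
  l.Nodup ∧ (∀ p ∈ l, p < N) ∧ ∀ g ∈ B, ∀ x : Fin N, x.val ∈ l → (g • x).val ∈ l

theorem go_Inv.mono {B B' : Subgroup A} {l : List ℕ} (h : go_Inv N B l) (hB : B' ≤ B) : go_Inv N B' l :=
  ⟨h.1, h.2.1, fun g hg => h.2.2 g (hB hg)⟩

theorem go_gd {B : Subgroup A} {Ls : List (List ℕ)} (h : ∀ l ∈ Ls, go_Inv N B l) (j : ℕ) :
    go_Inv N B (gd [] Ls j) := by
  rw [H25.gd_eq]
  by_cases hj : j < Ls.length
  · rw [List.getD_eq_getElem _ _ hj]
    exact h _ (List.getElem_mem hj)
  · rw [List.getD_eq_default _ _ (not_lt.1 hj)]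
    exact ⟨List.nodup_nil, by simp, by simp⟩

theorem go_sum_inv {B : Subgroup A} {l : List ℕ} (h : go_Inv N B l) {g : A} (hg : g ∈ B) {f f' : ℕ → ℕ}
    (hf : ∀ s : Fin N, f' (g • s).val = f s.val) : sumL l f' = sumL l f := by
  rw [go_sum l h.1 h.2.1, go_sum l h.1 h.2.1, ← Equiv.sum_comp (MulAction.toPerm g)]
  refine Finset.sum_congr rfl fun s _ => ?_
  have : (g • s).val ∈ l ↔ s.val ∈ l :=
    ⟨fun hs => by simpa using h.2.2 g⁻¹ (B.inv_mem hg) _ hs, h.2.2 g hg s⟩
  simp only [MulAction.toPerm_apply, this, hf]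

theorem go_itr {a : ℕ → ℕ} {al : Fin N → Fin N} (hal : ∀ x : Fin N, (al x).val = a x.val)
    (hc : ∀ (g : A) (x : Fin N), g • al x = al (g • x)) (j : ℕ) :
    ∃ F : Fin N → Fin N, (∀ x, (F x).val = itr a j x.val) ∧ ∀ (g : A) x, g • F x = F (g • x) := by
  induction j with
  | zero => exact ⟨id, fun _ => rfl, fun _ _ => rfl⟩
  | succ j ih =>
    obtain ⟨F, h1, h2⟩ := ih
    refine ⟨fun x => al (F x), fun x => ?_, fun g x => by rw [hc, h2]⟩
    have : itr a (j + 1) x.val = force (itr a j x.val) a := rfl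
    rw [this, force_eq, hal, h1]

theorem go_tf_inv (hA : ∀ (g : A) (x y : Fin N), ad (g • x).val (g • y).val = ad x.val y.val)
    {a : ℕ → ℕ} {al : Fin N → Fin N} (hal : ∀ x : Fin N, (al x).val = a x.val)
    (hc : ∀ (g : A) (x : Fin N), g • al x = al (g • x)) {Fx : List ℕ} (hFx : ∀ p ∈ Fx, p < N)
    {Ls : List (List ℕ)} (hLs : ∀ l ∈ Ls, go_Inv N (go_B A N Fx) l) {op j : ℕ} (hj : op = 0 → j ∈ Fx)
    {g : A} (hg : g ∈ go_B A N Fx) (x : Fin N) : go_tf a Ls op j (g • x).val = go_tf a Ls op j x.val := by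
  obtain ⟨F, h1, h2⟩ := go_itr hal hc j
  unfold go_tf
  by_cases o0 : op = 0
  · rw [if_pos o0, if_pos o0]
    let J : Fin N := ⟨j, hFx j (hj o0)⟩
    have hJ : g • J = J := hg J (hj o0)
    have e1 : (g • x).val = j ↔ x.val = j := by
      change (g • x).val = J.val ↔ x.val = J.val
      rw [Fin.val_inj, Fin.val_inj]
      conv_lhs => rw [← hJ]
      exact smul_left_cancel_iff g
    have e2 : ad j (g • x).val = ad j x.val := by
      have := hA g J x
      rwa [hJ] at this
    simp only [e1, e2]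
  rw [if_neg o0, if_neg o0]
  by_cases o4 : op = 4
  · rw [if_pos o4, if_pos o4, ← h1, ← h1, ← h2, hA]
  rw [if_neg o4, if_neg o4]
  by_cases o5 : op = 5
  · rw [if_pos o5, if_pos o5, ← h1, ← h1, ← h2]
    simp only [Fin.val_inj, smul_left_cancel_iff]
  rw [if_neg o5, if_neg o5]
  by_cases o1 : op = 1
  · rw [if_pos o1, if_pos o1]
    exact go_sum_inv (go_gd hLs j) hg fun s => hA g x s
  rw [if_neg o1, if_neg o1]
  refine go_sum_inv (go_gd hLs j) hg fun s => ?_
  rw [← hal, ← hal, ← hc, hA, hA]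

theorem go_run [Finite A] (hA : ∀ (g : A) (x y : Fin N), ad (g • x).val (g • y).val = ad x.val y.val)
    {a : ℕ → ℕ} {al : Fin N → Fin N} (hal : ∀ x : Fin N, (al x).val = a x.val)
    (hc : ∀ (g : A) (x : Fin N), g • al x = al (g • x)) (fin : List ℕ → Bool)
    (hfin : ∀ Fx, fin Fx = true → ∀ g : A, (∀ x : Fin N, x.val ∈ Fx → g • x = x) → g = 1)
    (prog : List (ℕ × ℕ × ℕ × ℕ)) (Fx : List ℕ) (Ls : List (List ℕ)) (m : ℕ) (hFx : ∀ p ∈ Fx, p < N)
    (hLs : ∀ l ∈ Ls, go_Inv N (go_B A N Fx) l) (h : run a fin prog Fx Ls m = true) :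
    Nat.card (go_B A N Fx) ≤ m := by
  induction prog generalizing Fx Ls m with
  | nil =>
    have h' : band (fin Fx) (Nat.ble 1 m) = true := h
    rw [band_iff] at h'
    have : go_B A N Fx = ⊥ := (Subgroup.eq_bot_iff_forall _).2 fun g hg => hfin Fx h'.1 g hg
    rw [this, Subgroup.card_bot]
    exact Nat.le_of_ble_eq_true h'.2
  | cons p prog ih =>
    have h' : (Bool.rec (Bool.rec
      (band (bor (bnot (Nat.beq p.1 0)) (mem p.2.2.1 Fx)) (tst a Ls p.1 p.2.2.1 fun f =>
        flt f p.2.2.2 (fun l => run a fin prog Fx (l :: Ls) m) (gd [] Ls p.2.1) []))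
      (band (mem p.2.1 Fx) (force (a p.2.1) fun q => run a fin prog (q :: Fx) Ls m)) (Nat.beq p.1 3))
      (band (mem p.2.2.1 (gd [] Ls p.2.1)) (force (Nat.div m (sumL (gd [] Ls p.2.1) fun _ => 1))
        (run a fin prog (p.2.2.1 :: Fx) Ls))) (Nat.beq p.1 2) : Bool) = true := h
    clear h
    have hle : ∀ q, go_B A N (q :: Fx) ≤ go_B A N Fx := fun q g hg x hx => hg x (List.mem_cons_of_mem _ hx)
    have hI := go_gd hLs p.2.1
    rw [go_rec, go_rec] at h'
    split_ifs at h' with o2 o3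
    · rw [band_iff, go_mem, force_eq] at h'
      have hq := hI.2.1 _ h'.1
      have h1 := ih _ Ls _ (fun r hr => (List.mem_cons.1 hr).elim (fun e => e ▸ hq) (hFx r))
        (fun l hl => (hLs l hl).mono (hle _)) h'.2
      let J : Fin N := ⟨_, hq⟩
      have h2 := card_le_of_orbit_subset (K := go_B A N Fx) (x := J)
        (Y := ((Finset.univ.filter fun s : Fin N => s.val ∈ gd [] Ls p.2.1 : Finset (Fin N)) : Set (Fin N)))
        (by
          rintro _ ⟨g, rfl⟩
          simp only [Finset.coe_filter, Finset.mem_univ, true_and, Set.mem_setOf_eq]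
          exact hI.2.2 g g.2 J h'.1) (Finset.finite_toSet _)
      have h3 : go_B A N Fx ⊓ stabilizer A J = go_B A N (p.2.2.1 :: Fx) := by
        refine le_antisymm (fun g hg x hx => ?_) (le_inf (hle _) fun g hg => hg J List.mem_cons_self)
        rcases List.mem_cons.1 hx with e | e
        · have : x = J := Fin.ext e
          rw [this]
          exact hg.2
        · exact hg.1 x e
      rw [h3, Set.ncard_coe_finset, Finset.card_filter, ← go_sum _ hI.1 hI.2.1 fun _ => 1] at h2
      exact h2.trans ((Nat.mul_le_mul_left _ h1).trans (Nat.mul_div_le _ _))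
    · rw [band_iff, go_mem, force_eq] at h'
      let J : Fin N := ⟨_, hFx _ h'.1⟩
      have e : a p.2.1 = (al J).val := (hal J).symm
      have h3 : go_B A N (a p.2.1 :: Fx) = go_B A N Fx := by
        refine le_antisymm (hle _) fun g hg x hx => ?_
        rcases List.mem_cons.1 hx with e' | e'
        · have : x = al J := Fin.ext (e'.trans e)
          rw [this, hc, hg J h'.1]
        · exact hg x e'
      have h1 := ih _ Ls _ (fun r hr => (List.mem_cons.1 hr).elim (fun e' => by rw [e', e]; exact (al J).2) (hFx r))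
        (fun l hl => (hLs l hl).mono (hle _)) h'.2
      rwa [h3] at h1
    · rw [band_iff, go_tst, go_flt, List.append_nil, bor_iff, bnot_iff, go_mem] at h'
      have hj : p.1 = 0 → p.2.2.1 ∈ Fx := fun e => h'.1.resolve_left fun h => h (Nat.beq_eq.mpr e)
      refine ih Fx _ m hFx (fun l hl => ?_) h'.2
      rcases List.mem_cons.1 hl with e | e
      · rw [e]
        refine ⟨List.nodup_reverse.2 (hI.1.filter _), fun r hr => ?_, fun g hg x hx => ?_⟩
        · exact hI.2.1 r (List.mem_filter.1 (List.mem_reverse.1 hr)).1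
        · rw [List.mem_reverse, List.mem_filter] at hx ⊢
          refine ⟨hI.2.2 g hg x hx.1, ?_⟩
          rw [go_tf_inv hA hal hc hFx hLs hj hg]
          exact hx.2
      · exact hLs l e

theorem go_rg (n : ℕ) : (rg n).Nodup ∧ ∀ p, p ∈ rg n ↔ p < n := by
  induction n with
  | zero => exact ⟨List.nodup_nil, fun p => by simp [rg]⟩
  | succ n ih =>
    have e : rg (n + 1) = n :: rg n := rfl
    rw [e]
    refine ⟨List.nodup_cons.2 ⟨by rw [ih.2]; omega, ih.1⟩, fun p => ?_⟩
    rw [List.mem_cons, ih.2]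
    omega

theorem go_gen [Finite A] (hA : ∀ (g : A) (x y : Fin N), ad (g • x).val (g • y).val = ad x.val y.val)
    {a : ℕ → ℕ} {al : Fin N → Fin N} (hal : ∀ x : Fin N, (al x).val = a x.val)
    (hc : ∀ (g : A) (x : Fin N), g • al x = al (g • x)) {b : ℕ} (hb : b < N)
    (h0 : ∀ (g : A) (x : Fin N), x.val = b → g • x = x) (fin : List ℕ → Bool)
    (hfin : ∀ Fx, fin Fx = true → ∀ g : A, (∀ x : Fin N, x.val ∈ Fx → g • x = x) → g = 1)
    (prog : List (ℕ × ℕ × ℕ × ℕ)) (m : ℕ) (h : run a fin prog [b] [rg N] m = true) : Nat.card A ≤ m := by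
  have h1 := go_run hA hal hc fin hfin prog [b] [rg N] m (by simpa using hb) (fun l hl => by
    rw [List.mem_singleton.1 hl]
    exact ⟨(go_rg N).1, fun p hp => ((go_rg N).2 p).1 hp, fun g _ x _ => ((go_rg N).2 _).2 (g • x).2⟩) h
  have h2 : go_B A N [b] = ⊤ := (Subgroup.eq_top_iff' _).2 fun g x hx => h0 g x (List.mem_singleton.1 hx)
  rwa [h2, Subgroup.card_top] at h1
end

theorem go_unf (w : List ℕ) (fin : List ℕ → Bool) (prog : List (ℕ × ℕ × ℕ × ℕ)) (m : ℕ) :
    go w fin prog m = run (tr w) fin prog [1831] [rg 4060] m := by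
  unfold go wW tr
  rw [H25.forceL_eq]
  exact H25.forceL_eq (rg 4060) fun l => run (trT (mp w)) fin prog [1831] [l] m

theorem go_sound {A : Type*} [Group A] [Finite A] [MulAction A (Fin 4060)]
    (hA : ∀ (g : A) (x y : Fin 4060), ad (g • x).val (g • y).val = ad x.val y.val)
    (w : List ℕ) (al : Fin 4060 → Fin 4060) (hal : ∀ x : Fin 4060, (al x).val = tr w x.val)
    (hc : ∀ (g : A) (x : Fin 4060), g • al x = al (g • x))
    (h0 : ∀ (g : A) (x : Fin 4060), x.val = 1831 → g • x = x) (fin : List ℕ → Bool)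
    (hfin : ∀ Fx, fin Fx = true → ∀ g : A, (∀ x : Fin 4060, x.val ∈ Fx → g • x = x) → g = 1)
    (prog : List (ℕ × ℕ × ℕ × ℕ)) (m : ℕ) (h : go w fin prog m = true) : Nat.card A ≤ m :=
  go_gen hA hal hc (by norm_num) h0 fin hfin prog m ((go_unf w fin prog m).symm.trans h)

end Cfsg.Agent.H7.Rv
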