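import Cfsg.Agent.H1.G2a

/-! Sylow `2`-subgroups of type `G₂(q)`: passing to the centralizer of the central involution. -/

set_option autoImplicit false

namespace Cfsg.Agent.H1.G2

open Subgroup Cfsg.Agent.H19.Gt

variable {G K : Type*} [Group G] [Finite G] [CommGroup K] {τ : K × K →* G} {u v : G} {z : K} {S : Sylow 2 G}

omit [Finite G] in
theorem pF1 [Finite K] (hK : IsPGroup 2 K) (h : Gs (S : Subgroup G) τ u v) {t : G} (ht : orderOf t = 2)
    (htS : t ∈ (S : Subgroup G)) (htZ : ∀ s ∈ (S : Subgroup G), s * t = t * s) :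
    ∃ z : K, Gz (S : Subgroup G) τ u v z ∧ t = τ (z, z) := by
  obtain ⟨ρ, r1, r2, -, -⟩ := cyc_data h.cyc h.four
  have g : Gz (S : Subgroup G) τ u v (ρ * ρ) := ⟨h, inferInstance, hK, r1, r2⟩
  refine ⟨ρ * ρ, g, ?_⟩
  have tt : t * t = 1 := by have := pow_orderOf_eq_one t; rwa [ht, pow_two] at this
  have t1' : t ≠ 1 := fun e => by rw [e, orderOf_one] at ht; exact absurd ht (by decide)
  obtain ⟨a, b, rfl | rfl | rfl | rfl⟩ := (h.mem _).1 htS
  · rw [tm, h.teq1] at tt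
    have e : a = b := (h.cv (a := 1) (b := 1) (c := a) (d := b)).1 (by
      rw [t1, one_mul]; exact (htZ v h.vS).symm)
    subst e
    rcases g.inv2 tt.1 with e | e
    · rw [e, t1] at t1'; exact absurd rfl t1'
    · rw [e]
  · exact absurd (h.cu.1 (htZ _ (h.tS ρ ρ))).1 r1
  · exact absurd (h.cv.1 (htZ _ (h.tS (ρ * ρ) 1))) r1
  · exact absurd ((h.cw.1 (htZ _ (h.tS (ρ * ρ) 1))).trans g.zi).symm r1

theorem pF2 (h : Gz (S : Subgroup G) τ u v z)
    (hA : ∀ s ∈ h.M, s * s = 1 → s ≠ 1 → s ≠ τ (z, z) →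
      ∃ c : G, c * τ (z, z) = τ (z, z) * c ∧ c * s * c⁻¹ = τ (z, 1)) :
    ∃ (S' : Sylow 2 (centralizer ({τ (z, z)} : Set G))) (τ' : K × K →* centralizer ({τ (z, z)} : Set G))
      (u' v' : centralizer ({τ (z, z)} : Set G))
      (h' : Gz (S' : Subgroup (centralizer ({τ (z, z)} : Set G))) τ' u' v' z),
      (∀ g, g * τ' (z, z) = τ' (z, z) * g) ∧
        ∀ s ∈ h'.M, s * s = 1 → s ≠ 1 → s ≠ τ' (z, z) → IsConj s (τ' (z, 1)) := by
  have g := h.toGs
  have hle : (S : Subgroup G) ≤ centralizer ({τ (z, z)} : Set G) := fun s hs =>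
    mem_centralizer_singleton_iff.2 (h.t_cen hs)
  let τ' : K × K →* centralizer ({τ (z, z)} : Set G) := τ.codRestrict _ fun x => hle (g.tS x.1 x.2)
  have h' : Gz ((S.subtype hle : Sylow 2 _) : Subgroup (centralizer ({τ (z, z)} : Set G))) τ'
      ⟨u, hle g.uS⟩ ⟨v, hle g.vS⟩ z := by
    refine ⟨⟨g.cyc, g.four, fun x y e => g.inj (congrArg Subtype.val e), Subtype.ext g.uu, Subtype.ext g.vv,
      Subtype.ext g.uv, fun a b => Subtype.ext (g.ut a b), fun a b => Subtype.ext (g.vt a b), fun x => ?_⟩,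
      h.fin, h.two, h.z1, h.zz⟩
    rw [Sylow.coe_subtype, mem_subgroupOf, g.mem]
    simp only [Subtype.ext_iff]
    rfl
  refine ⟨_, τ', _, _, h', fun x => Subtype.ext (mem_centralizer_singleton_iff.1 x.2), fun s hs e1 e2 e3 => ?_⟩
  have hs' : (s : G) ∈ h.M := by
    obtain ⟨a, b, e, f⟩ := hs
    refine ⟨a, b, e, ?_⟩
    simp only [Subtype.ext_iff] at f
    exact f
  obtain ⟨c, c1, c2⟩ := hA s hs' (congrArg Subtype.val e1) (fun e => e2 (Subtype.ext e)) fun e => e3 (Subtype.ext e)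
  exact isConj_iff.2 ⟨⟨c, mem_centralizer_singleton_iff.2 c1⟩, Subtype.ext c2⟩

omit [Finite G] in
theorem pF3 {S : Subgroup G} (h : Gz S τ u v z) : Nat.card K = 4 ∨ 8 ∣ Nat.card K := by
  have := h.fin
  obtain ⟨n, hn⟩ := IsPGroup.iff_card.1 h.two
  have h4 := h.four
  rw [hn] at h4 ⊢
  rcases n with _ | _ | _ | n
  · omega
  · omega
  · exact .inl rfl
  · exact .inr ⟨2 ^ n, by ring⟩

end Cfsg.Agent.H1.G2
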