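import Cfsg.Agent.H1.Ic0

/-! Intrinsic `2`-components with a unique involution: involutions of a central product. -/

set_option autoImplicit false
set_option linter.unusedVariables false

namespace Cfsg.Agent.H1.Ic

open Subgroup Cfsg.Agent.FT Cfsg.Agent.GW
open scoped commutatorElement

variable {G : Type*} [Group G] [Finite G] {J J' K D M Q T O : Subgroup G} {a b x y s t : G}

theorem p6x_mcq (h : Ic J a) (hQ : Syl 2 Q J) : ∃ α β m, H3.MCQ Q α β m ∧ a = α ^ 2 ^ (m - 1) := by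
  have hr : prank 2 Q ≤ 1 := by
    by_contra hc
    obtain ⟨A, hA⟩ := exists_pnElem_of_lt_prank (lt_of_not_ge hc)
    have h1 : A ≤ ⟪a⟫ := fun u hu => by
      by_cases e : u = 1
      · rw [e]; exact one_mem _
      · rw [h.uniq u (hQ.le (hA.le hu)) (orderOf_eq_prime (hA.abelem.2 u hu) e)]
        exact mem_zpowers a
    have h2 := card_dvd h1
    rw [hA.card, h.inv.card] at h2
    revert h2; decide
  obtain ⟨α, β, m, hm⟩ := (H3.cyc_or_mcq_of_rank hQ.pi hr).resolve_left (h.pc.pqs.not_cyc_two hQ)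
  exact ⟨α, β, m, hm, (h.uniq _ (hQ.le (hm.le hm.z_mem)) hm.ord_z).symm⟩

theorem p6x_four (h : Ic J a) (ex : x * x = a) : x⁻¹ = a * x := by
  refine inv_eq_of_mul_eq_one_left ?_
  rw [mul_assoc, ex, h.inv.sq]

theorem p6x_two (h : Ic J a) (ex : x * x = a) : PiElt {2} x := by
  have : x ^ 2 ^ 2 = 1 := by
    rw [show x ^ 2 ^ 2 = x * x * (x * x) by rw [← sq, ← sq, ← pow_mul]; rfl, ex, h.inv.sq]
  exact (piNat_self_pow Nat.prime_two 2).of_dvd (orderOf_dvd_of_pow_eq_one this)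

theorem p6x_into (h : Ic J a) (hQ : Syl 2 Q J) {α β : G} {m : ℕ} (hm : H3.MCQ Q α β m)
    (ha : a ∈ ⟪α⟫) (hx : x ∈ J) (ex : x * x = a) : ∃ g ∈ J, g * x * g⁻¹ ∈ ⟪α⟫ := by
  by_contra! hc
  have ca : ∀ g ∈ J, g⁻¹ * a * g = a := fun g hg => by
    rw [mul_assoc, ← mem_cen1.1 (h.pc.le hg), inv_mul_cancel_left]
  have key : ∀ (k : ℕ), ∀ g ∈ J, (g⁻¹ * x ^ k * g ∈ ⟪α⟫ ↔ Even k) := by
    intro k g hg
    have e2 : ∀ j : ℕ, g⁻¹ * x ^ (2 * j) * g = a ^ j := fun j => by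
      rw [pow_mul, sq, ex]
      calc g⁻¹ * a ^ j * g = (g⁻¹ * a * g⁻¹⁻¹) ^ j := by rw [conj_pow, inv_inv]
        _ = _ := by rw [inv_inv, ca g hg]
    rcases Nat.even_or_odd' k with ⟨j, rfl | rfl⟩
    · rw [e2]
      exact ⟨fun _ => even_two_mul j, fun _ => pow_mem ha j⟩
    · refine ⟨fun e => absurd ?_ (hc g⁻¹ (inv_mem hg)), fun e => absurd e (by simp)⟩
      rw [show g⁻¹ * x ^ (2 * j + 1) * g = g⁻¹ * x ^ (2 * j) * g * (g⁻¹ * x * g⁻¹⁻¹) by group, e2] at e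
      exact (mul_mem_cancel_left (pow_mem ha j)).1 e
  obtain ⟨M, -, h2, -⟩ := H4.thompson_transfer_general (G := J) (H := Q.subgroupOf J) (Q := (⟪α⟫).subgroupOf J)
    (Nat.not_even_iff_odd.1 fun e => hQ.not_dvd Nat.prime_two e.two_dvd)
    (by rw [relIndex_subgroupOf hQ.le, hm.relIndex]) (u := ⟨x, hx⟩) fun k g _ => key k g g.2
  exact no2_of_perfect h.pc.perf (M.map J.subtype) (map_subtype_le M)
    (by rw [relIndex, subgroupOf, comap_map_eq_self_of_injective J.subtype_injective, h2])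

theorem p6c (h : Ic J a) (hx : x ∈ J) (hy : y ∈ J) (ex : x * x = a) (ey : y * y = a) :
    ∃ g ∈ J, g * x * g⁻¹ = y := by
  obtain ⟨Q, hQ⟩ := exists_syl 2 J
  obtain ⟨α, β, m, hm, ea⟩ := p6x_mcq h hQ
  have ha : a ∈ ⟪α⟫ := ea ▸ hm.z_mem
  obtain ⟨g, hg, h1⟩ := p6x_into h hQ hm ha hx ex
  obtain ⟨k, hk, h2⟩ := p6x_into h hQ hm ha hy ey
  have ca : ∀ g ∈ J, ∀ x, x * x = a → g * x * g⁻¹ * (g * x * g⁻¹) = a := fun g hg x e => by
    rw [show g * x * g⁻¹ * (g * x * g⁻¹) = g * (x * x) * g⁻¹ by group, e, mem_cen1.1 (h.pc.le hg),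
      mul_inv_cancel_right]
  have e1 := ca g hg x ex
  have e2 := ca k hk y ey
  have fin : ∀ l ∈ J, l * (g * x * g⁻¹) * l⁻¹ = k * y * k⁻¹ → ∃ g ∈ J, g * x * g⁻¹ = y := fun l hl e =>
    ⟨k⁻¹ * l * g, mul_mem (mul_mem (inv_mem hk) hl) hg, by
      rw [show k⁻¹ * l * g * x * (k⁻¹ * l * g)⁻¹ = k⁻¹ * (l * (g * x * g⁻¹) * l⁻¹) * k by group, e]; group⟩
  generalize g * x * g⁻¹ = u at *
  generalize k * y * k⁻¹ = v at *
  have c : u * v = v * u := H3.comm_of_mem_zpowers h1 h2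
  have h3 : (u * v) ^ 2 = 1 := by
    rw [(show Commute u v from c).mul_pow, sq, sq, e1, e2, h.inv.sq]
  have hb : β * u * β⁻¹ = u⁻¹ := by
    obtain ⟨n, rfl⟩ := h1
    simp only
    rw [← conj_zpow, hm.inv, inv_zpow]
  rcases hm.eq_one_or (mul_mem h1 h2) h3 with e | e
  · exact fin β (hQ.le hm.b_mem) (by rw [hb]; exact inv_eq_of_mul_eq_one_right e)
  · refine fin 1 (one_mem _) ?_
    rw [← ea, ← e2] at e
    rw [one_mul, inv_one, mul_one]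
    exact mul_right_cancel e

theorem p6x_inv (h : Ic J a) (hQ : Syl 2 Q J) (hy : y ∈ Q) (e : y * y = a) :
    ∃ n ∈ Q, n * n = a ∧ n * y * n⁻¹ = y⁻¹ := by
  obtain ⟨α, β, m, hm, ea⟩ := p6x_mcq h hQ
  by_cases h1 : y ∈ ⟪α⟫
  · refine ⟨β, hm.b_mem, by rw [← sq, hm.sq, ea], ?_⟩
    obtain ⟨n, rfl⟩ := h1
    simp only
    rw [← conj_zpow, hm.inv, inv_zpow]
  · have hm' := hm.out hy h1
    have h2 := hm.two_le
    have w2 : α ^ 2 ^ (m - 2) * α ^ 2 ^ (m - 2) = a := by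
      rw [← pow_add, ← two_mul, ← pow_succ', ea, show m - 2 + 1 = m - 1 by omega]
    have w3 : y * α ^ 2 ^ (m - 2) * y⁻¹ = (α ^ 2 ^ (m - 2))⁻¹ := by
      rw [← conj_pow, hm'.inv, inv_pow]
    refine ⟨α ^ 2 ^ (m - 2), pow_mem hm.a_mem _, w2, ?_⟩
    generalize α ^ 2 ^ (m - 2) = w at *
    calc w * y * w⁻¹ = w * (y * w * y⁻¹)⁻¹ * y := by group
      _ = w * w * y := by rw [w3, inv_inv]
      _ = _ := by rw [w2, p6x_four h e]

theorem p6x_odd (hO : PiGrp {2}ᶜ O) (hs : s * s = 1) (ht : t * t = 1) (h : s * t⁻¹ ∈ O) :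
    ∃ o ∈ O, o * s * o⁻¹ = t := by
  obtain ⟨k, hk⟩ := odd_orderOf (odd_iff_p'.2 hO) h
  have ti : t⁻¹ = t := inv_eq_of_mul_eq_one_right ht
  have si : s⁻¹ = s := inv_eq_of_mul_eq_one_right hs
  have h1 := pow_orderOf_eq_one (s * t⁻¹)
  rw [hk] at h1
  rw [ti] at h h1
  have h2 : s * (s * t) * s⁻¹ = (s * t)⁻¹ := by
    rw [← mul_assoc, hs, one_mul, mul_inv_rev, ti]
  have h3 : s * (s * t) ^ k * s⁻¹ = ((s * t) ^ k)⁻¹ := by rw [← conj_pow, h2, inv_pow]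
  refine ⟨(s * t) ^ k, pow_mem h k, ?_⟩
  have h4 : (s * t) ^ k * (s * t) ^ k * (s * t) = 1 := by rw [← pow_add, ← two_mul, ← pow_succ, h1]
  generalize (s * t) ^ k = r at *
  calc r * s * r⁻¹ = r * s * (s * r * s⁻¹) := by rw [h3]
    _ = r * (s * s) * r * s⁻¹ := by group
    _ = r * r * (s * t) * t⁻¹ := by rw [hs, si]; group
    _ = t := by rw [h4, one_mul, ti]

theorem p6x (h0 : Ic J a) (h1 : Ic J' a) (hne : J ≠ J') (hT : Syl 2 T C[a]) (hb : Invo b) (hbT : b ∈ T)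
    (hbJ : b ∈ J ⊔ J') (hc : ¬ ⁅J, ⟪b⟫⁆ ≤ O[{2}ᶜ](J)) (hc' : ¬ ⁅J', ⟪b⟫⁆ ≤ O[{2}ᶜ](J')) :
    (∃ n ∈ T ⊓ J, n * n = a ∧ n * b * n⁻¹ = a * b) ∧
      ∀ n ∈ T ⊓ J, ∀ n' ∈ T ⊓ J', n * n = a → n' * n' = a → ∃ g ∈ C[a], g * b * g⁻¹ = n * n' := by
  have hA : Syl 2 (T ⊓ J) J := hT.inf_subn h0.pc.subn
  have hB : Syl 2 (T ⊓ J') J' := hT.inf_subn h1.pc.subn
  have hJJ : ⁅J, J'⁆ ≤ O[{2}ᶜ](J) := (h0.pc.comm_of_ne h1.pc hne).trans inf_le_left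
  have hcm : ∀ u ∈ J, ∀ v ∈ J', ⁅u, v⁆ ∈ O[{2}ᶜ](J) := fun u hu v hv => hJJ (commutator_mem_commutator hu hv)
  have cm : ∀ u ∈ T ⊓ J, ∀ v ∈ T ⊓ J', u * v = v * u := fun u hu v hv => by
    have h2 : ⁅u, v⁆ ∈ O[{2}ᶜ](J) ⊓ T := ⟨hcm u hu.2 v hv.2, by
      rw [commutatorElement_def]
      exact T.mul_mem (T.mul_mem (T.mul_mem hu.1 hv.1) (T.inv_mem hu.1)) (T.inv_mem hv.1)⟩
    rw [(pcore_pi _ J).inf_eq_bot' hT.pi, mem_bot] at h2
    exact commutatorElement_eq_one_iff_mul_comm.1 h2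
  have n1 : J' ≤ N(J) := h1.pc.norms_pcomp h0.pc
  have n2 : J ⊔ J' ≤ N(J) := sup_le (le_nrm J) n1
  have hR : T ⊓ (J ⊔ J') ≤ J ⊔ (T ⊓ J') := by
    rw [← quo_le_quo (inf_le_right.trans n2) (inf_le_right.trans n1)]
    refine ((hB.quo n1).max ((hT.pi.inf_left _).quo J) (quo_mono J (inf_le_inf_left T le_sup_right)) ?_).le
    rw [← quo_sup_left n1]
    exact quo_mono J inf_le_right
  obtain ⟨c, hcJ, c', hc2, e⟩ := (mem_sup_norm (inf_le_right.trans n1)).1 (hR ⟨hbT, hbJ⟩)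
  have hc1 : c ∈ T ⊓ J := ⟨(T.mul_mem_cancel_right hc2.1).1 (e ▸ hbT), hcJ⟩
  have cc : Commute c c' := cm c hc1 c' hc2
  have sq1 : c * c * (c' * c') = 1 := by
    rw [← sq, ← sq, ← cc.mul_pow, ← e, sq, hb.sq]
  have c2 : c * c = a := by
    obtain ⟨α, β, m, hm, ea⟩ := p6x_mcq h0 hA
    have h3 : c * c ∈ Z(T ⊓ J) := ⟨mul_mem hc1 hc1, mem_cen.2 fun u hu => by
      rw [eq_inv_of_mul_eq_one_left sq1]
      exact (Commute.inv_right (cm u hu _ (mul_mem hc2 hc2))).eq⟩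
    rw [hm.center, hm.mem_z_iff, ← ea] at h3
    refine h3.resolve_left fun e1 => hc ?_
    have h4 : ∀ k ∈ J, k * c = c * k := fun k hk => by
      by_cases e2 : c = 1
      · rw [e2, mul_one, one_mul]
      · rw [h0.uniq c hcJ (invo_of e1 e2)]
        exact mem_cen1.1 (h0.pc.le hk)
    refine comm_zpowers_le (norms_pcore _ n2 hbJ) (pcore_nrm _ J) fun k hk => ?_
    have h5 := inv_mem (hcm k hk c' hc2.2)
    rw [commutatorElement_inv] at h5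
    have h6 := mem_nrm.1 (pcore_nrm {2}ᶜ J hcJ) _ h5
    have h7 : ⁅b, k⁆ = c * ⁅c', k⁆ * c⁻¹ := by
      rw [e, commutatorElement_def, commutatorElement_def]
      calc c * c' * k * (c * c')⁻¹ * k⁻¹ = c * c' * k * c'⁻¹ * (k * c)⁻¹ := by group
        _ = _ := by rw [h4 k hk]; group
    rwa [h7]
  have c2' : c' * c' = a := by
    rw [c2] at sq1
    rw [eq_inv_of_mul_eq_one_right sq1, h0.inv.inv]
  refine ⟨?_, fun n hn n' hn' e1 e2 => ?_⟩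
  · obtain ⟨n, hn, e1, e2⟩ := p6x_inv h0 hA hc1 c2
    refine ⟨n, hn, e1, ?_⟩
    calc n * b * n⁻¹ = n * c * n⁻¹ * (n * c' * n⁻¹) := by rw [e]; group
      _ = _ := by rw [e2, cm n hn c' hc2, p6x_four h0 c2, e]; group
  · obtain ⟨g, hg, e3⟩ := p6c h0 hcJ hn.2 c2 e1
    obtain ⟨g', hg', e4⟩ := p6c h1 hc2.2 hn'.2 c2' e2
    have o1 := mem_nrm.1 (pcore_nrm {2}ᶜ J hg) _ (inv_mem (hcm c hcJ g' hg'))
    have o2 := mem_nrm.1 (pcore_nrm {2}ᶜ J hn.2) _ (hcm g hg n' hn'.2)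
    have h5 : g * g' * b * (g * g')⁻¹ * (n * n')⁻¹ ∈ O[{2}ᶜ](J) := by
      have := mul_mem o1 o2
      rw [← e3, ← e4] at this
      rw [e, ← e3, ← e4]
      convert this using 1
      simp only [commutatorElement_def]
      group
    have cn : Commute n n' := cm n hn n' hn'
    obtain ⟨o, ho, e5⟩ := p6x_odd (pcore_pi _ J) (hb.conj (g * g')).sq
      (by rw [← sq, cn.mul_pow, sq, sq, e1, e2, h0.inv.sq]) h5
    refine ⟨o * (g * g'), mul_mem (h0.pc.le (pcore_le _ J ho)) (mul_mem (h0.pc.le hg) (h1.pc.le hg')), ?_⟩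
    rw [← e5]; group

end Cfsg.Agent.H1.Ic
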