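import Mathlib
import Cfsg.Agent.H9.IBr

/-!
A block contains at least `l(B)` characters fixed by a `p`-power Galois automorphism.
-/

set_option autoImplicit false
set_option linter.unusedSectionVars false

namespace Cfsg.Agent.H9

open MonoidAlgebra Cfsg Finset
open Cfsg.Agent.H8 (locRing up IsBlockUnion chiL pPart pReg)
open Cfsg.Agent.H7 (ip)
open scoped ComplexConjugate

local notation "𝐙" x => Subgroup.centralizer (Singleton.singleton x : Set _)

variable {M : Ideal AlgInt} [hMm : M.IsMaximal] {p : ℕ} [hp : Fact p.Prime] [hM : PMod M p]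
variable {G : Type*} [Group G] [Fintype G] {B : Set (IrrCharacter G)}

theorem trace_nonneg (hB : IsBlockUnion M B) (α : G ≃* G) :
    0 ≤ (∑ s with ¬ p ∣ orderOf s, ∑ ξ ∈ bs B, ξ.1 (α s) * conj (ξ.1 s)).re := by
  obtain ⟨ι, _, _, e, r, h1, h2, -, h4⟩ := exists_simples (p := p) hB
  obtain ⟨-, ψ, hψ, h6⟩ := exists_dual hB h1 (fun i => (h2 i).1) h4
  have h7 : ∀ s, ¬ p ∣ orderOf s → ∑ ξ ∈ bs B, ξ.1 (α s) * conj (ξ.1 s) =
      ∑ i, ψ i (α s) * ∑ j, (up M (e i)).coeff (j * s * j⁻¹) := fun s hs => by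
    rw [sum_congr rfl fun ξ hξ => by rw [h6 ξ (mem_bs.1 hξ) _ (by rwa [α.orderOf_eq]), sum_mul], sum_comm]
    refine sum_congr rfl fun i _ => ?_
    rw [← inv_inv s, ← projChar_apply, ← blockPart_projChar hB (h2 i).2, blockPart_eq_bs, Finset.sum_apply,
      mul_sum, inv_inv]
    exact sum_congr rfl fun χ _ => by
      rw [ip_projChar _ (H8.irr_isChar χ), Pi.smul_apply, H7.char_inv (H8.irr_isChar χ), smul_eq_mul]; ring
  have h8 : ∀ i, ∑ s with ¬ p ∣ orderOf s, ψ i (α s) * ∑ j, (up M (e i)).coeff (j * s * j⁻¹) =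
      (Fintype.card G * r (domCongr ℤ _ α (e i)) i : ℕ) := fun i => by
    rw [sum_filter_of_ne (p := fun s : G => ¬ p ∣ orderOf s) fun s _ h hs => h (by
      rw [← (hψ i).1.2.2, reg_of_dvd (by rwa [α.orderOf_eq]), zero_mul]), Nat.cast_mul,
      ← (hψ i).2.2 _ (by rw [← map_mul, (h2 i).1]), H8.chiL_apply]
    simp only [mul_sum]
    rw [sum_comm, ← mul_sum, ← nsmul_eq_mul, ← card_univ, ← sum_const]
    refine sum_congr rfl fun j _ => Fintype.sum_equiv ((MulAut.conj j).trans α).toEquiv _ _ fun s => ?_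
    simp [mul_comm (ψ i _), (hψ i).1.1 _ _]
  rw [sum_congr rfl fun s hs => h7 s (mem_filter.1 hs).2, sum_comm, sum_congr rfl fun i _ => h8 i,
    ← Nat.cast_sum]
  exact Nat.cast_nonneg _

theorem section_nonneg (hB : IsBlockUnion M B) {k : ℕ} (hk : k.Coprime (Nat.card G))
    (h1 : ∀ s : G, ¬ p ∣ orderOf s → s ^ k = s) (u : G) [DecidableEq G] :
    0 ≤ (∑ g with pPart p g = u, ∑ χ ∈ bs B, χ.1 (g ^ k) * conj (χ.1 g)).re := by
  classical
  have := H8.finite_irr (G := G)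
  have := Fintype.ofFinite (IrrCharacter G)
  have := H8.finite_irr (G := (𝐙 u))
  have := Fintype.ofFinite (IrrCharacter (𝐙 u))
  by_cases h3 : IsConj (u ^ k) u ∧ ∃ n, orderOf u = p ^ n
  swap
  · rw [sum_eq_zero fun g hg => ?_]
    · simp
    obtain rfl := (mem_filter.1 hg).2
    rw [bs_eq_filter]
    refine H8.block_orthogonality hM.out hB fun e => h3 ⟨?_, H8.orderOf_pPart g⟩
    obtain ⟨a, ha⟩ := H8.exists_pPart_eq_pow (p := p) (G := G)
    rwa [ha, ← pow_mul, mul_comm, pow_mul, ← ha] at e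
  obtain ⟨h3, hu⟩ := h3
  obtain ⟨x, hx⟩ := isConj_iff.1 h3
  have h4 : x ∈ Subgroup.normalizer ((𝐙 u : Subgroup G) : Set G) := Subgroup.mem_normalizer_fintype
    fun y hy => Subgroup.mem_centralizer_singleton_iff.2 (by
      have := (Commute.pow_right (Subgroup.mem_centralizer_singleton_iff.1 hy) k).eq
      calc x * y * x⁻¹ * u = x * (y * u ^ k) * x⁻¹ := by nth_rw 1 [← hx]; group
        _ = _ := by rw [this]; nth_rw 2 [← hx]; group)
  convert trace_nonneg (p := p) (H8.isBlockUnion_indSet (M := M) _ B) ((𝐙 u).normalizerMonoidHom ⟨x, h4⟩)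
    using 2
  symm
  refine sum_bij (fun s _ => u * s) (fun s hs => ?_) (fun _ _ _ _ h => Subtype.ext (mul_left_cancel h))
    (fun g hg => ?_) fun s hs => ?_
  · exact mem_filter.2 ⟨mem_univ _, H8.pPart_mul hu (by simpa using hs)
      (Subgroup.mem_centralizer_singleton_iff.1 s.2).symm⟩
  · obtain rfl := (mem_filter.1 hg).2
    exact ⟨⟨pReg p g, Subgroup.mem_centralizer_singleton_iff.2 (H8.commute_pPart_pReg g).symm⟩, 
      mem_filter.2 ⟨mem_univ _, by
        rw [Subgroup.orderOf_mk]; exact H8.not_dvd_orderOf_pReg g⟩, H8.pPart_mul_pReg p g⟩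
  have h5 := (mem_filter.1 hs).2
  rw [bs_eq_filter, bs_eq_filter, ← H8.sum_block_section hM.out hB hu h5 (by rwa [MulEquiv.orderOf_eq])]
  refine sum_congr rfl fun χ _ => ?_
  rw [(show Commute u s from (Subgroup.mem_centralizer_singleton_iff.1 s.2).symm).mul_pow,
    h1 s (by simpa using h5), ← H7.irr_cf χ.2 (u ^ k * s) x, ← conj_mul, hx]
  rfl

theorem blockRank_le_fixed (hB : IsBlockUnion M B) {k : ℕ} (hk : k.Coprime (Nat.card G))
    (h1 : ∀ s : G, ¬ p ∣ orderOf s → s ^ k = s) :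
    blockRank p B ≤ Nat.card {χ : IrrCharacter G // χ ∈ B ∧ ∀ g, χ.1 (g ^ k) = χ.1 g} := by
  classical
  have h2 : (Nat.card {χ : IrrCharacter G // χ ∈ B ∧ ∀ g, χ.1 (g ^ k) = χ.1 g} : ℂ) =
      ∑ χ ∈ bs B, ip (fun g => χ.1 (g ^ k)) χ.1 := by
    rw [sum_congr rfl fun χ _ => (H7.ip_irr (H6.isIrr_comp_pow χ.2 hk) χ.2).trans
      (ite_congr rfl (fun _ => rfl) fun _ => rfl), sum_boole, ← Nat.card_eq_finsetCard]
    exact congrArg _ (Nat.card_congr (Equiv.subtypeEquivRight fun χ => by simp [funext_iff]))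
  have h3 := blockRank_eq_sum (p := p) hB
  simp only [rip_def, H7.ip_def, ← mul_sum] at h2 h3
  rw [sum_comm] at h2 h3
  rw [← sum_fiberwise univ (pPart p), ← add_sum_erase _ _ (mem_univ 1), mul_add, sum_congr
    (filter_congr fun g _ => H8.pPart_eq_one_iff) fun g hg => by rw [h1 g (mem_filter.1 hg).2], ← h3] at h2
  have h4 := sum_nonneg (s := univ.erase 1) fun u _ => section_nonneg hB hk h1 u
  have h5 := congrArg Complex.re h2
  rw [Complex.add_re, ← Complex.ofReal_natCast (Nat.card G), ← Complex.ofReal_inv, Complex.re_ofReal_mul,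
    Complex.re_sum, Complex.natCast_re, Complex.natCast_re] at h5
  exact Nat.cast_le.1 (h5 ▸ le_add_of_nonneg_right (mul_nonneg (by positivity) h4))

omit hMm hM in
theorem exists_gen_exp (hodd : p ≠ 2) : ∃ k : ℕ, k.Coprime (Nat.card G) ∧
    (∀ s : G, ¬ p ∣ orderOf s → s ^ k = s) ∧ ∀ j : ℕ, j.Coprime (Nat.card G) →
      j ≡ 1 [MOD Nat.card G / p ^ (Nat.card G).factorization p] → ∃ n, ∀ g : G, g ^ j = g ^ k ^ n := by
  set a := (Nat.card G).factorization p
  have h0 : Nat.card G ≠ 0 := Nat.card_pos.ne'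
  have h1 : (p ^ a).Coprime (Nat.card G / p ^ a) := (Nat.coprime_ordCompl hp.out h0).pow_left a
  have h2 : p ^ a * (Nat.card G / p ^ a) = Nat.card G := Nat.ordProj_mul_ordCompl_eq_self _ _
  have : NeZero (p ^ a) := ⟨pow_ne_zero _ hp.out.ne_zero⟩
  obtain ⟨z, hz⟩ := (ZMod.isCyclic_units_of_prime_pow p hp.out hodd a).exists_monoid_generator
  obtain ⟨k, k1, k2⟩ := Nat.chineseRemainder h1 (z : ZMod (p ^ a)).val 1
  refine ⟨k, h2 ▸ Nat.Coprime.mul_right ?_ ?_, fun s hs => ?_, fun j h3 h4 => ?_⟩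
  · rw [Nat.Coprime, k1.gcd_eq]; exact ZMod.val_coe_unit_coprime z
  · rw [Nat.Coprime, k2.gcd_eq]; simp
  · conv_rhs => rw [← pow_one s]
    exact pow_eq_pow_iff_modEq.2 (k2.of_dvd (((hp.out.coprime_iff_not_dvd.2 hs).symm.pow_right a).dvd_of_dvd_mul_left
      (h2.symm ▸ orderOf_dvd_natCard s :)))
  · obtain ⟨n, hn⟩ := hz (ZMod.unitOfCoprime j (h3.of_dvd_right (Dvd.intro _ h2)))
    refine ⟨n, fun g => pow_eq_pow_iff_modEq.2 (Nat.ModEq.of_dvd (orderOf_dvd_natCard g) ?_)⟩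
    rw [← h2, ← Nat.modEq_and_modEq_iff_modEq_mul h1]
    refine ⟨(ZMod.natCast_eq_natCast_iff _ _ _).1 ?_, h4.trans (by simpa using (k2.pow n).symm)⟩
    rw [Nat.cast_pow, (ZMod.natCast_eq_natCast_iff _ _ _).2 k1, ZMod.natCast_zmod_val]
    simpa using congrArg Units.val hn.symm

end Cfsg.Agent.H9
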