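import Mathlib
import Cfsg.Agent.H9.Misc

/-!
Normal `π'`-subgroups in kernels of local blocks.
-/

set_option autoImplicit false

namespace Cfsg.Agent.H9

open MonoidAlgebra Cfsg Finset Cfsg.Agent.H18
open Cfsg.Agent.H8 (locRing resField res rd eB fB fC IsBlockUnion)

local notation "𝐂" Q => Subgroup.centralizer (SetLike.coe (Q : Subgroup _))
local notation "𝐍" Q => Subgroup.normalizer (SetLike.coe (Q : Subgroup _))

variable {M : Ideal AlgInt} [hMm : M.IsMaximal] {p : ℕ} [hp : Fact p.Prime] [hM : PMod M p]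
variable {G : Type*} [Group G] [Finite G] {B : Set (IrrCharacter G)} {σ : Set ℕ} (hσ : p ∉ σ)
include hσ

theorem avg_piCoreOf_iff {H : Subgroup G} {b : Set (IrrCharacter H)} (hb : IsPBlock M b) :
    avg (resField M) (piCoreOf σ H) * eI M b = eI M b ↔ ∀ x ∈ piCore σ H, x ∈ blockKer b := by
  have h := fun ξ (hξ : ξ ∈ b) => avg_mul_eI_iff (Subgroup.map_subtype_le (piCore σ H))
    (H2.le_normalizer_piCore _) (not_dvd_card_piCoreOf hσ le_rfl) hb hξ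
  obtain ⟨ξ, hξ⟩ := H8.block_nonempty hb
  refine ⟨fun h1 x hx ξ hξ => (h ξ hξ).1 h1 x ⟨x, hx, rfl⟩, fun h1 => (h ξ hξ).2 ?_⟩
  rintro x ⟨y, hy, h2⟩
  exact Subtype.ext h2 ▸ h1 y hy ξ hξ

theorem exists_maxPair_ker {D : Subgroup G} (hD : IsDefectGroup p M B D)
    {B₁ : Set (IrrCharacter (𝐍 D))} (h : IsInducedBlock M (𝐍 D) B₁ B) :
    ∃ e, MaxPair p ⊤ (eB M B) D e ∧
      (avg (resField M) (piCoreOf σ (𝐂 D)) * e = e ↔ ∀ n ∈ piCore σ (𝐍 D), n ∈ blockKer B₁) := by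
  have h1 := (isDefectGroup_iff h.2.1).1 hD
  obtain ⟨e, he⟩ := exists_isPairOf le_rfl top_le_normalizer_top (eB_mem_fix B) (isBlk_eB h.2.1).idem
    le_top h1.isP h1.br_ne
  have h2 : MaxPair p ⊤ (eB M B) D e := ⟨isBlk_eB h.2.1, h1, he⟩
  refine ⟨e, h2, ?_⟩
  rw [← h2.avg_normalizer_iff hσ, H8.IsInducedBlock.incl_eB_eq hM.out h hD]
  exact avg_piCoreOf_iff hσ h.1

omit hMm hp hM hσ [Finite G] in
theorem mem_piCoreOf_of {H : Subgroup G}
    (h : ∀ x : H, (∀ q : ℕ, q.Prime → q ∣ orderOf x → q ∈ σ) → x ∈ piCore σ H) :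
    ∀ x ∈ H, (∀ q : ℕ, q.Prime → q ∣ orderOf x → q ∈ σ) → x ∈ piCoreOf σ H := fun x hx h1 =>
  ⟨⟨x, hx⟩, h _ (by rwa [Subgroup.orderOf_mk]), rfl⟩

end Cfsg.Agent.H9
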