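import Mathlib
import Cfsg.Agent.H9.SP4

/-! The subgroup of index two from a dihedral Sylow `2`-subgroup of the normalizer. -/

set_option autoImplicit false
set_option linter.unusedSectionVars false

namespace Cfsg.Agent.H9.SP

open Subgroup Cfsg.Agent.FT Cfsg.Agent.GW Cfsg.Agent.H6 Cfsg.Agent.H21

variable {G : Type*} [Group G] [Finite G] {M : Subgroup G}

theorem L9.main' (h : L9 M) (S : Sylow 2 N(M)) (f : S ≃* DihedralGroup 4) :
    ∃ e : N8 →* G, Md T8 e ∧ T8.map e = M ∧ ¬ IsConj (e w8) (e z8) := by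
  set σ : D8 →* G := N(M).subtype.comp ((S : Subgroup N(M)).subtype.comp f.symm.toMonoidHom)
  have r : σ.range = (S : Subgroup N(M)).map N(M).subtype := by
    rw [MonoidHom.range_comp, MonoidHom.range_comp, MonoidHom.range_eq_top.2 f.symm.surjective,
      ← MonoidHom.range_eq_map, range_subtype]
  have s := syl_map_subtype Nat.prime_two S
  refine h.main σ (N(M).subtype_injective.comp ((S : Subgroup N(M)).subtype_injective.comp f.symm.injective))
    (r ▸ s.le) (le_of_forall_syl fun p hp hd => ?_)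
  haveI := Fact.mk hp
  obtain ⟨x, hx⟩ := exists_prime_orderOf_dvd_card' p hd
  have : p ∣ 2 ^ 3 * 3 ^ 2 := by
    rw [← hx, ← Subgroup.orderOf_coe]
    exact orderOf_dvd_of_pow_eq_one (h.pow72 x.2)
  obtain c | c := hp.dvd_mul.1 this
  · obtain rfl := (Nat.prime_dvd_prime_iff_eq hp Nat.prime_two).1 (hp.dvd_of_dvd_pow c)
    exact ⟨_, s, r ▸ le_sup_right⟩
  · obtain rfl := (Nat.prime_dvd_prime_iff_eq hp Nat.prime_three).1 (hp.dvd_of_dvd_pow c)
    exact ⟨_, h.syl.subl (le_nrm M) le_top, le_sup_left⟩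

theorem L9.not_simple (h : L9 M) (S : Sylow 2 N(M)) (f : S ≃* DihedralGroup 4) : ¬ IsSimpleGroup G := by
  intro hG
  obtain ⟨e, he, hT, c⟩ := h.main' S f
  obtain ⟨K, hK, -, h1, h2, -⟩ := he.exK c
  obtain rfl | rfl := hG.eq_bot_or_eq_top_of_normal K hK
  · have := h.card
    rw [← hT, le_bot_iff.1 h1] at this
    simp at this
  · exact h2 trivial

end Cfsg.Agent.H9.SP
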